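import Cfsg.Agent.Lib.TC.G.ON
import Cfsg.Agent.Lib.TC.Simple

set_option autoImplicit false

namespace Cfsg.Agent.Lib.TC.Data.ONS1

open Cfsg.Agent.Lib.TC

noncomputable def aE_0_0 (k : ℕ) : ℕ := Nat.land (Nat.shiftRight (nat_lit 0xb43581d098174000ac1b22681e8ca0003ec3e90b25246c0014a2d0230ad0bc000624761b72766a0001d82f47d8f419900085d2a9c944e918002765468214a237000b1533ad55cabcc00324684c5143334000d8d5b373704c14003a26a8f05c9bb2000f86083d27e30040043084310228460) (Nat.mul (Nat.land k (nat_lit 255)) (nat_lit 11))) (nat_lit 2047)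
noncomputable def aE (k : ℕ) : ℕ := Bool.rec (nat_lit 0) (aE_0_0 k) (Nat.blt k (nat_lit 256))

noncomputable def aR_0_0 (k : ℕ) : ℕ := Nat.land (Nat.shiftRight (nat_lit 0x16e0ec61ea4b950b67140004b8391870f1f421c1c500012b0c0004a439087051400043838187820e142e0030000ed0c00038830000c61400033430000c20d122c8030000ae0d4618000550a67140001b8331860000942b8030000680c00019833286600c000138321864f1d82191c500004b0c0001243208600000000b430000220c000098500000e0c0618000050a071400004c1000012042208401) (Nat.mul (Nat.land k (nat_lit 255)) (nat_lit 15))) (nat_lit 32767)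
noncomputable def aR (k : ℕ) : ℕ := Bool.rec (nat_lit 0) (aR_0_0 k) (Nat.blt k (nat_lit 256))

noncomputable def aK_0_0 (k : ℕ) : ℕ := Nat.land (Nat.shiftRight (nat_lit 0x22b96ecd626425490f1a20180) (Nat.mul (Nat.land k (nat_lit 255)) (nat_lit 7))) (nat_lit 127)
noncomputable def aK (k : ℕ) : ℕ := Bool.rec (nat_lit 0) (aK_0_0 k) (Nat.blt k (nat_lit 256))

noncomputable def aT_0_0 (k : ℕ) : ℕ := Nat.land (Nat.shiftRight (nat_lit 0xdbdcdc9adabdb9ba8cac9c7b88a6897597663847575534246436325241321021101000) (Nat.mul (Nat.land k (nat_lit 255)) (nat_lit 4))) (nat_lit 15)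
noncomputable def aT (k : ℕ) : ℕ := Bool.rec (nat_lit 0) (aT_0_0 k) (Nat.blt k (nat_lit 256))

noncomputable def aN_0_0 (k : ℕ) : ℕ := Nat.land (Nat.shiftRight (nat_lit 0xdcba9876543210) (Nat.mul (Nat.land k (nat_lit 255)) (nat_lit 4))) (nat_lit 15)
noncomputable def aN (k : ℕ) : ℕ := Bool.rec (nat_lit 0) (aN_0_0 k) (Nat.blt k (nat_lit 256))

noncomputable def tT (i g : ℕ) : ℕ := aT (Nat.add (Nat.mul i (nat_lit 5)) g)

def words : List (List ℕ) := [[0,0],[1,1],[2,2],[3,3],[4,4],[0,1,0,1,0,1],[0,2,0,2],[0,3,0,3],[0,4,0,4],[1,2,1,2,1,2],[1,3,1,3],[1,4,1,4],[2,3,2,3,2,3,2,3,2,3,2,3,2,3,2,3],[2,4,2,4],[3,4,3,4],[0,4,3,2,3,2,3,2,3,2],[0],[1],[2],[4]]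

noncomputable def Fk (k : ℕ) : Bool := checkKey (nat_lit 6) (nat_lit 5) (nat_lit 4) (nat_lit 15) aE (wordAt words) (nat_lit 16) (nat_lit 20) aR aK (nat_lit 18) (nat_lit 5) (nat_lit 31) (nat_lit 5) (nat_lit 31) k

noncomputable def cert : Cert where
  sz := 6
  ep := 5
  b := 4
  m := 15
  E := aE
  W := wordAt words
  nrel := 16
  nW := 20
  K := 256
  R := aR
  pk := aK
  fuel := 18
  bp := 5
  mp := 31
  bw := 5
  mw := 31

noncomputable def Fp (i : ℕ) : Bool := ptFin2 (nat_lit 14) (nat_lit 5) tT aN (nat_lit 6) (nat_lit 5) (nat_lit 4) (nat_lit 15) aE (nat_lit 18) i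

end Cfsg.Agent.Lib.TC.Data.ONS1
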